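import Mathlib
import Cfsg.Agent.Zass.Basic

/-!
The presentation of a Z-group with a fixed-point-free representation.
-/

set_option autoImplicit false

namespace CfsgLib.Zass

open CfsgLib.Frob

/-- The relators of a split metacyclic group. -/
def metaRels (n m r : ℕ) : Set (FreeGroup (Fin 2)) :=
  {FreeGroup.of (0 : Fin 2) ^ n, FreeGroup.of (1 : Fin 2) ^ m,
    (FreeGroup.of (0 : Fin 2))⁻¹ * FreeGroup.of 1 * FreeGroup.of 0 * (FreeGroup.of (1 : Fin 2) ^ r)⁻¹}

theorem conj_pow_iterate {P : Type*} [Group P] {x y : P} {r : ℕ} (h : x⁻¹ * y * x = y ^ r) :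
    ∀ k : ℕ, (x ^ k)⁻¹ * y * x ^ k = y ^ (r ^ k)
  | 0 => by simp
  | k + 1 => by
    have ih := conj_pow_iterate h k
    calc (x ^ (k + 1))⁻¹ * y * x ^ (k + 1) = x⁻¹ * ((x ^ k)⁻¹ * y * x ^ k) * x := by
          rw [pow_succ]; simp only [mul_inv_rev, mul_assoc]
      _ = (x⁻¹ * y * x⁻¹⁻¹) ^ (r ^ k) := by rw [ih, conj_pow, inv_inv]
      _ = _ := by rw [inv_inv, h, ← pow_mul, pow_succ']

theorem inv_conj_pow {P : Type*} [Group P] (x y : P) (k : ℕ) : x⁻¹ * y ^ k * x = (x⁻¹ * y * x) ^ k := by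
  have h := conj_pow (a := x⁻¹) (b := y) (i := k)
  rw [inv_inv] at h
  exact h.symm

/-- The presented group has order at most `n * m`. -/
theorem card_presented_le (n m r : ℕ) (hn : 0 < n) (hm : 0 < m) :
    Finite (PresentedGroup (metaRels n m r)) ∧ Nat.card (PresentedGroup (metaRels n m r)) ≤ n * m := by
  set P := PresentedGroup (metaRels n m r)
  let x : P := PresentedGroup.of 0
  let y : P := PresentedGroup.of 1
  have rel : ∀ v ∈ metaRels n m r, PresentedGroup.mk (metaRels n m r) v = 1 := fun v hv =>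
    PresentedGroup.one_of_mem hv
  have hx : x ^ n = 1 := by
    have h := rel (FreeGroup.of 0 ^ n) (Or.inl rfl); rw [map_pow] at h; exact h
  have hy : y ^ m = 1 := by
    have h := rel (FreeGroup.of 1 ^ m) (Or.inr (Or.inl rfl)); rw [map_pow] at h; exact h
  have hxy : x⁻¹ * y * x = y ^ r := by
    have h := rel _ (Or.inr (Or.inr rfl))
    simp only [map_mul, map_inv, map_pow] at h
    exact mul_inv_eq_one.mp h
  have hox : IsOfFinOrder x := isOfFinOrder_iff_pow_eq_one.mpr ⟨n, hn, hx⟩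
  have hoy : IsOfFinOrder y := isOfFinOrder_iff_pow_eq_one.mpr ⟨m, hm, hy⟩
  have hconj : ∀ g : P, ∃ k : ℕ, g * y * g⁻¹ = y ^ k := by
    intro g
    have hg : g ∈ Subgroup.closure (Set.range (PresentedGroup.of : Fin 2 → P)) := by
      rw [PresentedGroup.closure_range_of]; trivial
    have hinv : ∀ v : P, (∃ k : ℕ, v * y * v⁻¹ = y ^ k) → ∀ u : P, u ∈ Submonoid.powers v →
        ∃ k : ℕ, u * y * u⁻¹ = y ^ k := by
      rintro v ⟨k, hk⟩ u ⟨i, rfl⟩
      refine ⟨k ^ i, ?_⟩
      have := conj_pow_iterate (x := v⁻¹) (by rwa [inv_inv]) i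
      rwa [inv_pow, inv_inv] at this
    induction hg using Subgroup.closure_induction_left with
    | one => exact ⟨1, by simp⟩
    | mul_left v hv u _ ih =>
      obtain ⟨k, hk⟩ := ih
      obtain ⟨l, hl⟩ : ∃ l : ℕ, v * y * v⁻¹ = y ^ l := by
        obtain ⟨i, rfl⟩ := hv
        fin_cases i
        · exact hinv x⁻¹ ⟨r, by rw [inv_inv]; exact hxy⟩ x ⟨n - 1, by
            show x⁻¹ ^ (n - 1) = x
            rw [inv_pow, inv_eq_iff_mul_eq_one, ← pow_succ, Nat.sub_add_cancel hn, hx]⟩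
        · exact ⟨1, by simp [y]⟩
      refine ⟨l * k, ?_⟩
      rw [show v * u * y * (v * u)⁻¹ = v * (u * y * u⁻¹) * v⁻¹ by group, hk, ← conj_pow, hl, pow_mul]
    | inv_mul_cancel v hv u _ ih =>
      obtain ⟨k, hk⟩ := ih
      obtain ⟨l, hl⟩ : ∃ l : ℕ, v⁻¹ * y * v⁻¹⁻¹ = y ^ l := by
        obtain ⟨i, rfl⟩ := hv
        fin_cases i
        · exact ⟨r, by rw [inv_inv]; exact hxy⟩
        · exact ⟨1, by rw [pow_one, inv_inv]; show y⁻¹ * y * y = y; rw [inv_mul_cancel, one_mul]⟩
      refine ⟨l * k, ?_⟩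
      rw [show v⁻¹ * u * y * (v⁻¹ * u)⁻¹ = v⁻¹ * (u * y * u⁻¹) * v⁻¹⁻¹ by group, hk, ← conj_pow, hl, pow_mul]
  haveI hN : (Subgroup.zpowers y).Normal := by
    refine ⟨fun v hv g => ?_⟩
    obtain ⟨i, rfl⟩ := Subgroup.mem_zpowers_iff.mp hv
    obtain ⟨k, hk⟩ := hconj g
    rw [← conj_zpow, hk]
    exact Subgroup.zpow_mem _ (Subgroup.pow_mem _ (Subgroup.mem_zpowers y) k) i
  have hsurj : Function.Surjective fun ij : Fin n × Fin m => x ^ (ij.1 : ℕ) * y ^ (ij.2 : ℕ) := by
    intro g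
    have hg : g ∈ Subgroup.zpowers x ⊔ Subgroup.zpowers y := by
      have htop : (⊤ : Subgroup P) ≤ Subgroup.zpowers x ⊔ Subgroup.zpowers y := by
        rw [← PresentedGroup.closure_range_of, Subgroup.closure_le]
        rintro _ ⟨i, rfl⟩
        fin_cases i
        · exact Subgroup.mem_sup_left (Subgroup.mem_zpowers x)
        · exact Subgroup.mem_sup_right (Subgroup.mem_zpowers y)
      exact htop (Subgroup.mem_top g)
    obtain ⟨u, hu, v, hv, rfl⟩ := Subgroup.mem_sup_of_normal_right.mp hg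
    obtain ⟨i, rfl⟩ := hox.mem_powers_iff_mem_zpowers.mpr hu
    obtain ⟨j, rfl⟩ := hoy.mem_powers_iff_mem_zpowers.mpr hv
    refine ⟨(⟨i % n, Nat.mod_lt _ hn⟩, ⟨j % m, Nat.mod_lt _ hm⟩), ?_⟩
    simp only
    rw [← pow_eq_pow_mod _ hx, ← pow_eq_pow_mod _ hy]
  refine ⟨Finite.of_surjective _ hsurj, (Nat.card_le_card_of_surjective _ hsurj).trans ?_⟩
  rw [Nat.card_prod, Nat.card_fin, Nat.card_fin]

variable {Z : Type*} [Group Z] [Finite Z]

/-- The presentation. -/
theorem exists_presentation (h : LatFpf Z) [IsZGroup Z] :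
    ∃ n m r : ℕ, 0 < n ∧ 0 < m ∧ Nat.Coprime (r - 1) m ∧ Nat.Coprime n m ∧ 1 ≤ r ∧
      r ^ (n / ∏ p ∈ n.primeFactors, p) % m = 1 % m ∧
      Nonempty (Z ≃* PresentedGroup (metaRels n m r)) := by
  classical
  have hcop := IsZGroup.coprime_commutator_index Z
  obtain ⟨K, hK⟩ := Subgroup.exists_right_complement'_of_coprime hcop
  haveI hCc : IsCyclic (commutator Z) := IsZGroup.isCyclic_commutator Z
  haveI hKc : IsCyclic K := by
    let e : Abelianization Z ≃* K := hK.symm.QuotientMulEquiv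
    exact isCyclic_of_surjective e e.surjective
  obtain ⟨b, hb⟩ := IsCyclic.exists_generator (α := commutator Z)
  obtain ⟨a, ha⟩ := IsCyclic.exists_generator (α := K)
  set m := Nat.card (commutator Z) with hm
  set n := Nat.card K with hn
  have hcopnm : Nat.Coprime n m := by
    rw [hK.symm.index_eq_card] at hcop
    exact hcop.symm
  have hb0 : orderOf (b : Z) = m := by rw [Subgroup.orderOf_coe, orderOf_eq_card_of_forall_mem_zpowers hb]
  have ha0 : orderOf (a : Z) = n := by rw [Subgroup.orderOf_coe, orderOf_eq_card_of_forall_mem_zpowers ha]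
  have hbZ : Subgroup.zpowers (b : Z) = commutator Z := by
    refine le_antisymm (Subgroup.zpowers_le.mpr b.2) fun v hv => ?_
    obtain ⟨i, hi⟩ := Subgroup.mem_zpowers_iff.mp (hb ⟨v, hv⟩)
    exact Subgroup.mem_zpowers_iff.mpr ⟨i, by rw [← SubgroupClass.coe_zpow, hi]⟩
  have haZ : Subgroup.zpowers (a : Z) = K := by
    refine le_antisymm (Subgroup.zpowers_le.mpr a.2) fun v hv => ?_
    obtain ⟨i, hi⟩ := Subgroup.mem_zpowers_iff.mp (ha ⟨v, hv⟩)
    exact Subgroup.mem_zpowers_iff.mpr ⟨i, by rw [← SubgroupClass.coe_zpow, hi]⟩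
  have hgen : Subgroup.zpowers (b : Z) ⊔ Subgroup.zpowers (a : Z) = ⊤ := by
    rw [hbZ, haZ]; exact hK.sup_eq_top
  have hmpos : 0 < m := Nat.card_pos
  have hnpos : 0 < n := Nat.card_pos
  obtain ⟨r0, hr0⟩ : ∃ k : ℕ, (a : Z)⁻¹ * b * a = (b : Z) ^ k := by
    have hmem : (a : Z)⁻¹ * b * a ∈ Subgroup.zpowers (b : Z) := by
      rw [hbZ]
      simpa using (inferInstance : (commutator Z).Normal).conj_mem _ b.2 (a : Z)⁻¹
    obtain ⟨k, -, hk⟩ := Finset.mem_image.mp ((isOfFinOrder_of_finite _).mem_zpowers_iff_mem_range_orderOf.mp hmem)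
    exact ⟨k, hk.symm⟩
  obtain ⟨r, hr1, hr⟩ : ∃ r : ℕ, 1 ≤ r ∧ (a : Z)⁻¹ * b * a = (b : Z) ^ r :=
    ⟨r0 + m, by omega, by rw [pow_add, hr0, ← hb0, pow_orderOf_eq_one, mul_one]⟩
  have hiter := conj_pow_iterate hr
  have hr1m : Nat.Coprime (r - 1) m := by
    set L := Subgroup.zpowers ((b : Z) ^ (r - 1)) with hL
    haveI : L.Normal := by
      rw [← Subgroup.normalizer_eq_top_iff, eq_top_iff, ← hgen, sup_le_iff, Subgroup.zpowers_le,
        Subgroup.zpowers_le]
      refine ⟨mem_normalizer_zpowers ?_, (Subgroup.inv_mem_iff _).mp (mem_normalizer_zpowers ?_)⟩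
      · rw [(Commute.self_pow (b : Z) (r - 1)).eq, mul_inv_cancel_right]
        exact Subgroup.mem_zpowers _
      · rw [inv_inv, inv_conj_pow, hr, ← pow_mul, mul_comm, pow_mul]
        exact Subgroup.pow_mem _ (Subgroup.mem_zpowers _) _
    have hle : commutator Z ≤ L := by
      rw [← QuotientGroup.ker_mk' L]
      have hc : Commute (QuotientGroup.mk' L (a : Z)) (QuotientGroup.mk' L (b : Z)) := by
        show _ * _ = _ * _
        rw [← map_mul, ← map_mul]
        refine (QuotientGroup.eq.mpr ?_)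
        rw [show ((a : Z) * b)⁻¹ * ((b : Z) * a) = (b : Z)⁻¹ * ((a : Z)⁻¹ * b * a) by group, hr]
        have e : (b : Z)⁻¹ * (b : Z) ^ r = (b : Z) ^ (r - 1) := by
          rw [inv_mul_eq_iff_eq_mul, ← pow_succ', Nat.sub_add_cancel hr1]
        rw [e, hL]
        exact Subgroup.mem_zpowers _
      have hcen : ∀ u v : Z, Commute (QuotientGroup.mk' L u) (QuotientGroup.mk' L v) := by
        have hmem : ∀ u : Z, u ∈ (Subgroup.closure {QuotientGroup.mk' L (a : Z), QuotientGroup.mk' L (b : Z)}).comap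
            (QuotientGroup.mk' L) := by
          intro u
          have hu : u ∈ Subgroup.zpowers (b : Z) ⊔ Subgroup.zpowers (a : Z) := hgen ▸ Subgroup.mem_top u
          refine SetLike.le_def.mp (sup_le ?_ ?_) hu <;> rw [Subgroup.zpowers_le] <;> exact Subgroup.subset_closure (by simp)
        haveI := Subgroup.isMulCommutative_closure (k := {QuotientGroup.mk' L (a : Z), QuotientGroup.mk' L (b : Z)})
          (by
            rintro u (rfl | rfl) v (rfl | rfl)
            · rfl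
            · exact hc.eq
            · exact hc.eq.symm
            · rfl)
        intro u v
        exact congrArg Subtype.val (mul_comm' (⟨_, hmem u⟩ : Subgroup.closure _) ⟨_, hmem v⟩)
      rw [commutator_def, Subgroup.commutator_le]
      intro u _ v _
      rw [MonoidHom.mem_ker, map_commutatorElement]
      exact commutatorElement_eq_one_iff_commute.mpr (hcen u v)
    have hbL : (b : Z) ∈ L := hle b.2
    have h1 : orderOf (b : Z) ∣ orderOf ((b : Z) ^ (r - 1)) := by
      have := Subgroup.orderOf_dvd_natCard L hbL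
      rwa [Nat.card_zpowers] at this
    have h2 : orderOf ((b : Z) ^ (r - 1)) = m / m.gcd (r - 1) := by rw [orderOf_pow, hb0]
    rw [hb0, h2] at h1
    have h3 : m.gcd (r - 1) = 1 := by
      by_contra hg
      have hlt : m / m.gcd (r - 1) < m :=
        Nat.div_lt_self hmpos (by have := Nat.gcd_pos_of_pos_left (r - 1) hmpos; omega)
      have := Nat.le_of_dvd (Nat.div_pos (Nat.gcd_le_left _ hmpos) (Nat.gcd_pos_of_pos_left _ hmpos)) h1
      omega
    rw [Nat.coprime_comm]
    exact h3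
  have hpow : ∀ k : ℕ, Commute ((a : Z) ^ k) (b : Z) → ((r : ZMod m)) ^ k = 1 := by
    intro k hc
    have h1 : (b : Z) ^ (r ^ k) = (b : Z) ^ 1 := by
      rw [← hiter k, pow_one, mul_assoc, ← hc.eq, inv_mul_cancel_left]
    rw [pow_eq_pow_iff_modEq, hb0, ← ZMod.natCast_eq_natCast_iff] at h1
    simpa using h1
  have hd : orderOf (r : ZMod m) ∣ n / ∏ p ∈ n.primeFactors, p := by
    have hdn : orderOf (r : ZMod m) ∣ n :=
      orderOf_dvd_of_pow_eq_one (hpow n (by rw [← ha0, pow_orderOf_eq_one]; exact Commute.one_left _))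
    obtain ⟨c, hc⟩ := hdn
    have hc' : ∏ p ∈ n.primeFactors, p ∣ c := by
      refine Finset.prod_primes_dvd c (fun p hp => (Nat.prime_of_mem_primeFactors hp).prime) fun p hp => ?_
      have hpp := Nat.prime_of_mem_primeFactors hp
      have hpn := Nat.dvd_of_mem_primeFactors hp
      have hop : orderOf ((a : Z) ^ (n / p)) = p := by
        rw [orderOf_pow, ha0, Nat.gcd_eq_right (Nat.div_dvd_of_dvd hpn), Nat.div_div_self hpn hnpos.ne']
      have hnorm : (a : Z) ^ (n / p) ∈ Subgroup.normalizer ((commutator Z : Subgroup Z) : Set Z) := by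
        rw [Subgroup.normalizer_eq_top_iff.mpr inferInstance]; trivial
      have hcomm := commute_cyclic_of_prime h hCc hpp hop hnorm (fun hpm => hpp.ne_one
        (Nat.eq_one_of_dvd_coprimes hcopnm hpn hpm)) b b.2
      obtain ⟨t, ht⟩ := orderOf_dvd_of_pow_eq_one (hpow _ hcomm)
      refine ⟨t, Nat.eq_of_mul_eq_mul_left ((orderOf_pos_iff (x := (r : ZMod m))).mpr ?_) ?_⟩
      · exact isOfFinOrder_iff_pow_eq_one.mpr ⟨n, hnpos,
          hpow n (by rw [← ha0, pow_orderOf_eq_one]; exact Commute.one_left _)⟩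
      · rw [← hc, mul_left_comm, ← ht, Nat.mul_div_cancel' hpn]
    obtain ⟨e, he⟩ := hc'
    refine ⟨e, ?_⟩
    rw [Nat.div_eq_of_eq_mul_left (Finset.prod_pos fun p hp => Nat.pos_of_mem_primeFactors hp)]
    conv_lhs => rw [hc, he]
    ring
  refine ⟨n, m, r, hnpos, hmpos, hr1m, hcopnm, hr1, ?_, ?_⟩
  · have h1 : ((r ^ (n / ∏ p ∈ n.primeFactors, p) : ℕ) : ZMod m) = ((1 : ℕ) : ZMod m) := by
      push_cast
      exact orderOf_dvd_iff_pow_eq_one.mp hd
    exact (ZMod.natCast_eq_natCast_iff _ _ _).mp h1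
  · let φ : PresentedGroup (metaRels n m r) →* Z := PresentedGroup.toGroup (f := ![(a : Z), (b : Z)]) (by
      rintro v (rfl | rfl | rfl)
      · rw [map_pow, FreeGroup.lift_apply_of]
        show (a : Z) ^ n = 1
        rw [← ha0, pow_orderOf_eq_one]
      · rw [map_pow, FreeGroup.lift_apply_of]
        show (b : Z) ^ m = 1
        rw [← hb0, pow_orderOf_eq_one]
      · simp [hr])
    have hsurj : Function.Surjective φ := by
      rw [← MonoidHom.range_eq_top, eq_top_iff, ← hgen, sup_le_iff, Subgroup.zpowers_le, Subgroup.zpowers_le]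
      exact ⟨⟨PresentedGroup.of 1, by simp [φ]⟩, ⟨PresentedGroup.of 0, by simp [φ]⟩⟩
    obtain ⟨hfin, hle⟩ := card_presented_le n m r hnpos hmpos
    have hcard : Nat.card Z = n * m := by rw [hn, hm, mul_comm, hK.card_mul]
    refine ⟨(MulEquiv.ofBijective φ ((Nat.bijective_iff_surjective_and_card _).mpr ⟨hsurj, ?_⟩)).symm⟩
    have := Nat.card_le_card_of_surjective φ hsurj
    omega

end CfsgLib.Zass
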