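import Mathlib

/-!
An explicit coset table: the group `⟨X, Y, Z | X³ = Y⁵ = Z² = 1, Z central, (X Y)² = Z⟩` has at most `120` elements.
-/

set_option autoImplicit false

namespace CfsgLib.Zass

variable {G : Type*} [Group G]

/-- An entry of the table: `u * t = t' * (Y ^ i * Z ^ k)`. -/
def TEntry (Y Z u t t' : G) (i k : ℕ) : Prop := u * t = t' * (Y ^ i * Z ^ k)

theorem TEntry.comp {Y Z u v t t' t'' : G} {i k i' k' : ℕ} (hc : Commute Y Z) (h1 : TEntry Y Z u t t' i k)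
    (h2 : TEntry Y Z v t' t'' i' k') : TEntry Y Z (v * u) t t'' (i' + i) (k' + k) := by
  unfold TEntry at *
  calc v * u * t = v * t' * (Y ^ i * Z ^ k) := by rw [mul_assoc, h1, ← mul_assoc]
    _ = t'' * (Y ^ i' * Z ^ k') * (Y ^ i * Z ^ k) := by rw [h2]
    _ = t'' * (Y ^ (i' + i) * Z ^ (k' + k)) := by
      rw [mul_assoc, (hc.symm.pow_pow k' i).mul_mul_mul_comm, pow_add, pow_add]

theorem TEntry.norm {Y Z u t t' : G} {i k i' k' : ℕ} (h5 : Y ^ 5 = 1) (h2 : Z ^ 2 = 1) (h : TEntry Y Z u t t' i k)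
    (hi : i % 5 = i' % 5) (hk : k % 2 = k' % 2) : TEntry Y Z u t t' i' k' := by
  unfold TEntry at *
  rw [h, pow_eq_pow_mod i h5, pow_eq_pow_mod k h2, hi, hk, ← pow_eq_pow_mod i' h5, ← pow_eq_pow_mod k' h2]

theorem TEntry.inverse {Y Z u t t' : G} {i k i' k' : ℕ} (h5 : Y ^ 5 = 1) (h2 : Z ^ 2 = 1) (hc : Commute Y Z)
    (h : TEntry Y Z u t t' i k) (hi : (i + i') % 5 = 0) (hk : (k + k') % 2 = 0) : TEntry Y Z u⁻¹ t' t i' k' := by
  unfold TEntry at *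
  rw [inv_mul_eq_iff_eq_mul, ← mul_assoc, h, mul_assoc, (hc.symm.pow_pow k i').mul_mul_mul_comm, ← pow_add,
    ← pow_add, pow_eq_pow_mod (i + i') h5, hi, pow_eq_pow_mod (k + k') h2, hk, pow_zero, pow_zero, one_mul, mul_one]

theorem TEntry.deduce {Y Z g w t t' : G} {i k s : ℕ} (hz : ∀ x, Commute Z x) (hg : g = Z ^ s * w)
    (h : TEntry Y Z w t t' i k) : TEntry Y Z g t t' i (k + s) := by
  unfold TEntry at *
  rw [hg, mul_assoc, h, ← mul_assoc, ((hz t').pow_left s).eq, mul_assoc]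
  congr 1
  rw [← mul_assoc, ((hz (Y ^ i)).pow_left s).eq, mul_assoc, ← pow_add, add_comm]

/-- The set of elements covered by the table. -/
def tableSet (Y Z : G) (L : List G) : Set G := {x | ∃ t ∈ L, ∃ i k : ℕ, x = t * (Y ^ i * Z ^ k)}

set_option maxHeartbeats 1000000 in
theorem exists_table {X Y Z : G} (hX : X ^ 3 = 1) (hY : Y ^ 5 = 1) (hZ : Z ^ 2 = 1) (hz : ∀ x, Commute Z x)
    (hXY : (X * Y) ^ 2 = Z) : ∃ L : List G, L.length ≤ 12 ∧ (1 : G) ∈ L ∧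
      ∀ g ∈ ({X, Y, Z, X⁻¹, Y⁻¹, Z⁻¹} : Set G), ∀ x ∈ tableSet Y Z L, g * x ∈ tableSet Y Z L := by
  have hc : Commute Y Z := (hz Y).symm
  have hYX : (Y * X) ^ 2 = Z := by
    calc (Y * X) ^ 2 = X⁻¹ * (X * Y) ^ 2 * X := by simp [pow_two, mul_assoc]
      _ = Z := by rw [hXY, mul_assoc, (hz X).eq, inv_mul_cancel_left]
  have hZi : Z⁻¹ = Z := inv_eq_of_mul_eq_one_right (by rw [← pow_two, hZ])
  have r0 : X = Z ^ 0 * (X⁻¹ * (X⁻¹)) := by
    calc X = X ^ 3 * (X⁻¹ * (X⁻¹)) := by group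
      _ = Z ^ 0 * (X⁻¹ * (X⁻¹)) := by rw [hX, pow_zero]
  have r1 : X⁻¹ = Z ^ 0 * (X * (X)) := by
    calc X⁻¹ = (X ^ 3)⁻¹ * (X * (X)) := by group
      _ = Z ^ 0 * (X * (X)) := by rw [hX, inv_one, pow_zero]
  have r2 : Y = Z ^ 0 * (Y⁻¹ * (Y⁻¹ * (Y⁻¹ * (Y⁻¹)))) := by
    calc Y = Y ^ 5 * (Y⁻¹ * (Y⁻¹ * (Y⁻¹ * (Y⁻¹)))) := by group
      _ = Z ^ 0 * (Y⁻¹ * (Y⁻¹ * (Y⁻¹ * (Y⁻¹)))) := by rw [hY, pow_zero]
  have r3 : Y⁻¹ = Z ^ 0 * (Y * (Y * (Y * (Y)))) := by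
    calc Y⁻¹ = (Y ^ 5)⁻¹ * (Y * (Y * (Y * (Y)))) := by group
      _ = Z ^ 0 * (Y * (Y * (Y * (Y)))) := by rw [hY, inv_one, pow_zero]
  have r4 : X = Z ^ 1 * (Y⁻¹ * (X⁻¹ * (Y⁻¹))) := by
    calc X = (X * Y) ^ 2 * (Y⁻¹ * (X⁻¹ * (Y⁻¹))) := by simp [pow_two, mul_assoc]
      _ = Z ^ 1 * (Y⁻¹ * (X⁻¹ * (Y⁻¹))) := by rw [hXY, pow_one]
  have r5 : Y = Z ^ 1 * (X⁻¹ * (Y⁻¹ * (X⁻¹))) := by
    calc Y = (Y * X) ^ 2 * (X⁻¹ * (Y⁻¹ * (X⁻¹))) := by simp [pow_two, mul_assoc]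
      _ = Z ^ 1 * (X⁻¹ * (Y⁻¹ * (X⁻¹))) := by rw [hYX, pow_one]
  have r6 : Y⁻¹ = Z ^ 1 * (X * (Y * (X))) := by
    calc Y⁻¹ = ((X * Y) ^ 2)⁻¹ * (X * (Y * (X))) := by simp [pow_two, mul_assoc]
      _ = Z ^ 1 * (X * (Y * (X))) := by rw [hXY, hZi, pow_one]
  have r7 : X⁻¹ = Z ^ 1 * (Y * (X * (Y))) := by
    calc X⁻¹ = ((Y * X) ^ 2)⁻¹ * (Y * (X * (Y))) := by simp [pow_two, mul_assoc]
      _ = Z ^ 1 * (Y * (X * (Y))) := by rw [hYX, hZi, pow_one]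
  obtain ⟨t0, ht0⟩ : ∃ t : G, t = 1 := ⟨1, rfl⟩
  have eY0 : TEntry Y Z Y t0 t0 1 0 := by rw [TEntry, ht0]; simp
  have eYi0 : TEntry Y Z Y⁻¹ t0 t0 4 0 := eY0.inverse hY hZ hc (by norm_num) (by norm_num)
  obtain ⟨t1, eX0⟩ : ∃ t : G, TEntry Y Z X t0 t 0 0 := ⟨X * t0, by simp [TEntry]⟩
  have eXi1 : TEntry Y Z X⁻¹ t1 t0 0 0 := eX0.inverse hY hZ hc (by norm_num) (by norm_num)
  obtain ⟨t2, eXi0⟩ : ∃ t : G, TEntry Y Z X⁻¹ t0 t 0 0 := ⟨X⁻¹ * t0, by simp [TEntry]⟩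
  have eX2 : TEntry Y Z X t2 t0 0 0 := by
    simpa using (show TEntry Y Z (X⁻¹)⁻¹ t2 t0 0 0 from eXi0.inverse hY hZ hc (by norm_num) (by norm_num))
  have eX1 : TEntry Y Z X t1 t2 0 0 := (TEntry.deduce hz r0 (TEntry.comp hc eXi1 eXi0)).norm hY hZ (by norm_num) (by norm_num)
  have eXi2 : TEntry Y Z X⁻¹ t2 t1 0 0 := eX1.inverse hY hZ hc (by norm_num) (by norm_num)
  have eY1 : TEntry Y Z Y t1 t2 4 1 := (TEntry.deduce hz r5 (TEntry.comp hc (TEntry.comp hc eXi1 eYi0) eXi0)).norm hY hZ (by norm_num) (by norm_num)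
  have eYi2 : TEntry Y Z Y⁻¹ t2 t1 1 1 := eY1.inverse hY hZ hc (by norm_num) (by norm_num)
  obtain ⟨t3, eYi1⟩ : ∃ t : G, TEntry Y Z Y⁻¹ t1 t 0 0 := ⟨Y⁻¹ * t1, by simp [TEntry]⟩
  have eY3 : TEntry Y Z Y t3 t1 0 0 := by
    simpa using (show TEntry Y Z (Y⁻¹)⁻¹ t3 t1 0 0 from eYi1.inverse hY hZ hc (by norm_num) (by norm_num))
  obtain ⟨t4, eY2⟩ : ∃ t : G, TEntry Y Z Y t2 t 0 0 := ⟨Y * t2, by simp [TEntry]⟩
  have eYi4 : TEntry Y Z Y⁻¹ t4 t2 0 0 := eY2.inverse hY hZ hc (by norm_num) (by norm_num)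
  have eX4 : TEntry Y Z X t4 t3 0 1 := (TEntry.deduce hz r4 (TEntry.comp hc (TEntry.comp hc eYi4 eXi2) eYi1)).norm hY hZ (by norm_num) (by norm_num)
  have eXi3 : TEntry Y Z X⁻¹ t3 t4 0 1 := eX4.inverse hY hZ hc (by norm_num) (by norm_num)
  obtain ⟨t5, eX3⟩ : ∃ t : G, TEntry Y Z X t3 t 0 0 := ⟨X * t3, by simp [TEntry]⟩
  have eXi5 : TEntry Y Z X⁻¹ t5 t3 0 0 := eX3.inverse hY hZ hc (by norm_num) (by norm_num)
  have eX5 : TEntry Y Z X t5 t4 0 1 := (TEntry.deduce hz r0 (TEntry.comp hc eXi5 eXi3)).norm hY hZ (by norm_num) (by norm_num)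
  have eXi4 : TEntry Y Z X⁻¹ t4 t5 0 1 := eX5.inverse hY hZ hc (by norm_num) (by norm_num)
  obtain ⟨t6, eYi3⟩ : ∃ t : G, TEntry Y Z Y⁻¹ t3 t 0 0 := ⟨Y⁻¹ * t3, by simp [TEntry]⟩
  have eY6 : TEntry Y Z Y t6 t3 0 0 := by
    simpa using (show TEntry Y Z (Y⁻¹)⁻¹ t6 t3 0 0 from eYi3.inverse hY hZ hc (by norm_num) (by norm_num))
  have eY4 : TEntry Y Z Y t4 t6 1 1 := (TEntry.deduce hz r2 (TEntry.comp hc (TEntry.comp hc (TEntry.comp hc eYi4 eYi2) eYi1) eYi3)).norm hY hZ (by norm_num) (by norm_num)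
  have eYi6 : TEntry Y Z Y⁻¹ t6 t4 4 1 := eY4.inverse hY hZ hc (by norm_num) (by norm_num)
  obtain ⟨t7, eY5⟩ : ∃ t : G, TEntry Y Z Y t5 t 0 0 := ⟨Y * t5, by simp [TEntry]⟩
  have eYi7 : TEntry Y Z Y⁻¹ t7 t5 0 0 := eY5.inverse hY hZ hc (by norm_num) (by norm_num)
  have eX7 : TEntry Y Z X t7 t6 0 1 := (TEntry.deduce hz r4 (TEntry.comp hc (TEntry.comp hc eYi7 eXi5) eYi3)).norm hY hZ (by norm_num) (by norm_num)
  have eXi6 : TEntry Y Z X⁻¹ t6 t7 0 1 := eX7.inverse hY hZ hc (by norm_num) (by norm_num)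
  obtain ⟨t8, eYi5⟩ : ∃ t : G, TEntry Y Z Y⁻¹ t5 t 0 0 := ⟨Y⁻¹ * t5, by simp [TEntry]⟩
  have eY8 : TEntry Y Z Y t8 t5 0 0 := by
    simpa using (show TEntry Y Z (Y⁻¹)⁻¹ t8 t5 0 0 from eYi5.inverse hY hZ hc (by norm_num) (by norm_num))
  have eX6 : TEntry Y Z X t6 t8 4 1 := (TEntry.deduce hz r4 (TEntry.comp hc (TEntry.comp hc eYi6 eXi4) eYi5)).norm hY hZ (by norm_num) (by norm_num)
  have eXi8 : TEntry Y Z X⁻¹ t8 t6 1 1 := eX6.inverse hY hZ hc (by norm_num) (by norm_num)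
  have eX8 : TEntry Y Z X t8 t7 1 0 := (TEntry.deduce hz r0 (TEntry.comp hc eXi8 eXi6)).norm hY hZ (by norm_num) (by norm_num)
  have eXi7 : TEntry Y Z X⁻¹ t7 t8 4 0 := eX8.inverse hY hZ hc (by norm_num) (by norm_num)
  obtain ⟨t9, eY7⟩ : ∃ t : G, TEntry Y Z Y t7 t 0 0 := ⟨Y * t7, by simp [TEntry]⟩
  have eYi9 : TEntry Y Z Y⁻¹ t9 t7 0 0 := eY7.inverse hY hZ hc (by norm_num) (by norm_num)
  obtain ⟨t10, eYi8⟩ : ∃ t : G, TEntry Y Z Y⁻¹ t8 t 0 0 := ⟨Y⁻¹ * t8, by simp [TEntry]⟩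
  have eY10 : TEntry Y Z Y t10 t8 0 0 := by
    simpa using (show TEntry Y Z (Y⁻¹)⁻¹ t10 t8 0 0 from eYi8.inverse hY hZ hc (by norm_num) (by norm_num))
  have eY9 : TEntry Y Z Y t9 t10 0 0 := (TEntry.deduce hz r2 (TEntry.comp hc (TEntry.comp hc (TEntry.comp hc eYi9 eYi7) eYi5) eYi8)).norm hY hZ (by norm_num) (by norm_num)
  have eYi10 : TEntry Y Z Y⁻¹ t10 t9 0 0 := eY9.inverse hY hZ hc (by norm_num) (by norm_num)
  have eX9 : TEntry Y Z X t9 t10 4 1 := (TEntry.deduce hz r4 (TEntry.comp hc (TEntry.comp hc eYi9 eXi7) eYi8)).norm hY hZ (by norm_num) (by norm_num)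
  have eXi10 : TEntry Y Z X⁻¹ t10 t9 1 1 := eX9.inverse hY hZ hc (by norm_num) (by norm_num)
  obtain ⟨t11, eXi9⟩ : ∃ t : G, TEntry Y Z X⁻¹ t9 t 0 0 := ⟨X⁻¹ * t9, by simp [TEntry]⟩
  have eX11 : TEntry Y Z X t11 t9 0 0 := by
    simpa using (show TEntry Y Z (X⁻¹)⁻¹ t11 t9 0 0 from eXi9.inverse hY hZ hc (by norm_num) (by norm_num))
  have eX10 : TEntry Y Z X t10 t11 1 1 := (TEntry.deduce hz r0 (TEntry.comp hc eXi10 eXi9)).norm hY hZ (by norm_num) (by norm_num)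
  have eXi11 : TEntry Y Z X⁻¹ t11 t10 4 1 := eX10.inverse hY hZ hc (by norm_num) (by norm_num)
  have eY11 : TEntry Y Z Y t11 t11 4 0 := (TEntry.deduce hz r5 (TEntry.comp hc (TEntry.comp hc eXi11 eYi10) eXi9)).norm hY hZ (by norm_num) (by norm_num)
  have eYi11 : TEntry Y Z Y⁻¹ t11 t11 1 0 := eY11.inverse hY hZ hc (by norm_num) (by norm_num)
  refine ⟨[t0, t1, t2, t3, t4, t5, t6, t7, t8, t9, t10, t11], by simp, by simp [ht0], ?_⟩
  have key : ∀ {g t t' : G} {a b : ℕ}, TEntry Y Z g t t' a b → t' ∈ [t0, t1, t2, t3, t4, t5, t6, t7, t8, t9, t10, t11] → ∀ i k : ℕ,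
      g * (t * (Y ^ i * Z ^ k)) ∈ tableSet Y Z [t0, t1, t2, t3, t4, t5, t6, t7, t8, t9, t10, t11] := by
    intro g t t' a b h ht' i k
    refine ⟨t', ht', a + i, b + k, ?_⟩
    rw [← mul_assoc, h, mul_assoc, (hc.symm.pow_pow b i).mul_mul_mul_comm, ← pow_add, ← pow_add]
  have hzmem : ∀ t ∈ [t0, t1, t2, t3, t4, t5, t6, t7, t8, t9, t10, t11], ∀ i k : ℕ, Z * (t * (Y ^ i * Z ^ k)) ∈ tableSet Y Z [t0, t1, t2, t3, t4, t5, t6, t7, t8, t9, t10, t11] := by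
    intro t ht i k
    refine ⟨t, ht, i, k + 1, ?_⟩
    rw [(hz (t * (Y ^ i * Z ^ k))).eq, pow_succ]
    group
  rintro g hg x ⟨t, ht, i, k, rfl⟩
  simp only [Set.mem_insert_iff, Set.mem_singleton_iff] at hg
  rcases hg with rfl | rfl | rfl | rfl | rfl | rfl
  · simp only [List.mem_cons, List.not_mem_nil, or_false] at ht
    rcases ht with rfl | rfl | rfl | rfl | rfl | rfl | rfl | rfl | rfl | rfl | rfl | rfl
    · exact key eX0 (by simp) i k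
    · exact key eX1 (by simp) i k
    · exact key eX2 (by simp) i k
    · exact key eX3 (by simp) i k
    · exact key eX4 (by simp) i k
    · exact key eX5 (by simp) i k
    · exact key eX6 (by simp) i k
    · exact key eX7 (by simp) i k
    · exact key eX8 (by simp) i k
    · exact key eX9 (by simp) i k
    · exact key eX10 (by simp) i k
    · exact key eX11 (by simp) i k
  · simp only [List.mem_cons, List.not_mem_nil, or_false] at ht
    rcases ht with rfl | rfl | rfl | rfl | rfl | rfl | rfl | rfl | rfl | rfl | rfl | rfl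
    · exact key eY0 (by simp) i k
    · exact key eY1 (by simp) i k
    · exact key eY2 (by simp) i k
    · exact key eY3 (by simp) i k
    · exact key eY4 (by simp) i k
    · exact key eY5 (by simp) i k
    · exact key eY6 (by simp) i k
    · exact key eY7 (by simp) i k
    · exact key eY8 (by simp) i k
    · exact key eY9 (by simp) i k
    · exact key eY10 (by simp) i k
    · exact key eY11 (by simp) i k
  · exact hzmem t ht i k
  · simp only [List.mem_cons, List.not_mem_nil, or_false] at ht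
    rcases ht with rfl | rfl | rfl | rfl | rfl | rfl | rfl | rfl | rfl | rfl | rfl | rfl
    · exact key eXi0 (by simp) i k
    · exact key eXi1 (by simp) i k
    · exact key eXi2 (by simp) i k
    · exact key eXi3 (by simp) i k
    · exact key eXi4 (by simp) i k
    · exact key eXi5 (by simp) i k
    · exact key eXi6 (by simp) i k
    · exact key eXi7 (by simp) i k
    · exact key eXi8 (by simp) i k
    · exact key eXi9 (by simp) i k
    · exact key eXi10 (by simp) i k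
    · exact key eXi11 (by simp) i k
  · simp only [List.mem_cons, List.not_mem_nil, or_false] at ht
    rcases ht with rfl | rfl | rfl | rfl | rfl | rfl | rfl | rfl | rfl | rfl | rfl | rfl
    · exact key eYi0 (by simp) i k
    · exact key eYi1 (by simp) i k
    · exact key eYi2 (by simp) i k
    · exact key eYi3 (by simp) i k
    · exact key eYi4 (by simp) i k
    · exact key eYi5 (by simp) i k
    · exact key eYi6 (by simp) i k
    · exact key eYi7 (by simp) i k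
    · exact key eYi8 (by simp) i k
    · exact key eYi9 (by simp) i k
    · exact key eYi10 (by simp) i k
    · exact key eYi11 (by simp) i k
  · rw [hZi]; exact hzmem t ht i k

/-- The bound. -/
theorem card_le_of_table {X Y Z : G} (hX : X ^ 3 = 1) (hY : Y ^ 5 = 1) (hZ : Z ^ 2 = 1) (hz : ∀ x, Commute Z x)
    (hXY : (X * Y) ^ 2 = Z) (hgen : Subgroup.closure {X, Y, Z} = ⊤) : Finite G ∧ Nat.card G ≤ 120 := by
  obtain ⟨L, hL, h1, hclosed⟩ := exists_table hX hY hZ hz hXY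
  have hall : ∀ x : G, x ∈ tableSet Y Z L := by
    intro x
    have hx : x ∈ Subgroup.closure ({X, Y, Z} : Set G) := hgen ▸ Subgroup.mem_top x
    induction hx using Subgroup.closure_induction_left with
    | one => exact ⟨1, h1, 0, 0, by simp⟩
    | mul_left g hg y _ ih =>
      exact hclosed g (by
        simp only [Set.mem_insert_iff, Set.mem_singleton_iff] at hg ⊢
        rcases hg with h | h | h <;> simp [h]) y ih
    | inv_mul_cancel g hg y _ ih =>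
      exact hclosed g⁻¹ (by
        simp only [Set.mem_insert_iff, Set.mem_singleton_iff] at hg ⊢
        rcases hg with h | h | h <;> simp [h]) y ih
  let f : Fin L.length × Fin 5 × Fin 2 → G := fun p => L[p.1] * (Y ^ (p.2.1 : ℕ) * Z ^ (p.2.2 : ℕ))
  have hf : Function.Surjective f := by
    intro x
    obtain ⟨t, ht, i, k, rfl⟩ := hall x
    obtain ⟨m, hm, rfl⟩ := List.getElem_of_mem ht
    refine ⟨(⟨m, hm⟩, ⟨i % 5, Nat.mod_lt _ (by norm_num)⟩, ⟨k % 2, Nat.mod_lt _ (by norm_num)⟩), ?_⟩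
    simp only [f, Fin.getElem_fin]
    rw [← pow_eq_pow_mod i hY, ← pow_eq_pow_mod k hZ]
  haveI : Finite G := Finite.of_surjective f hf
  refine ⟨inferInstance, (Nat.card_le_card_of_surjective f hf).trans ?_⟩
  simp only [Nat.card_prod, Nat.card_fin]
  omega

end CfsgLib.Zass
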